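import Mathlib

/-!
# B. H. Neumann's theorem on groups with bounded conjugacy classes

`exists_bound`: for every `n` there is `N` such that a finite group all of whose conjugacy classes have at most `n`
elements has a derived subgroup of order at most `N`.
-/

set_option autoImplicit false

namespace Cfsg.Agent.H565.BFC

open Subgroup

/-- The conjugacy class of `x` as a finset. -/
noncomputable def cls {G : Type*} [Group G] [Finite G] (x : G) : Finset G := by
  classical
  haveI := Fintype.ofFinite G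
  exact Finset.univ.image (fun g : G => g * x * g⁻¹)

theorem mem_cls {G : Type*} [Group G] [Finite G] {x y : G} : y ∈ cls x ↔ ∃ g : G, g * x * g⁻¹ = y := by
  classical
  haveI := Fintype.ofFinite G
  unfold cls
  simp

theorem card_cls {G : Type*} [Group G] [Finite G] (x : G) :
    (cls x).card = (centralizer ({x} : Set G)).index := by
  classical
  haveI := Fintype.ofFinite G
  let f : G ⧸ centralizer ({x} : Set G) → G := Quotient.lift (fun g : G => g * x * g⁻¹) (by
    intro a b hab
    have h : a⁻¹ * b ∈ centralizer ({x} : Set G) := QuotientGroup.leftRel_apply.mp hab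
    rw [mem_centralizer_singleton_iff] at h
    show a * x * a⁻¹ = b * x * b⁻¹
    have h2 : a⁻¹ * b * x = x * (a⁻¹ * b) := h
    calc a * x * a⁻¹ = a * (x * (a⁻¹ * b)) * b⁻¹ := by group
      _ = a * (a⁻¹ * b * x) * b⁻¹ := by rw [h2]
      _ = b * x * b⁻¹ := by group)
  have hf : Function.Injective f := by
    intro u v
    refine Quotient.inductionOn₂ u v ?_
    intro a b hab
    have hab' : a * x * a⁻¹ = b * x * b⁻¹ := hab
    apply Quotient.sound
    show (QuotientGroup.leftRel (centralizer ({x} : Set G))) a b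
    rw [QuotientGroup.leftRel_apply, mem_centralizer_singleton_iff]
    calc a⁻¹ * b * x = a⁻¹ * (b * x * b⁻¹) * b := by group
      _ = a⁻¹ * (a * x * a⁻¹) * b := by rw [hab']
      _ = x * (a⁻¹ * b) := by group
  haveI : Fintype (G ⧸ centralizer ({x} : Set G)) := Fintype.ofFinite _
  have h1 : cls x = (Finset.univ : Finset (G ⧸ centralizer ({x} : Set G))).image f := by
    ext y
    rw [mem_cls, Finset.mem_image]
    constructor
    · rintro ⟨g, hg⟩
      exact ⟨(g : G ⧸ centralizer ({x} : Set G)), Finset.mem_univ _, hg⟩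
    · rintro ⟨u, -, hu⟩
      revert hu
      refine Quotient.inductionOn u ?_
      intro g hg
      exact ⟨g, hg⟩
  rw [h1, Finset.card_image_of_injective _ hf, Finset.card_univ, ← Nat.card_eq_fintype_card]
  rfl

/-- The number of commutators of a finite group with classes of size at most `n` is at most `n ^ n * n * (n * n)`. -/
theorem card_commutatorSet_le {G : Type*} [Group G] [Finite G] {n : ℕ}
    (h : ∀ x : G, (centralizer ({x} : Set G)).index ≤ n) :
    Nat.card (commutatorSet G) ≤ n ^ n * (n * (n * n)) := by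
  classical
  haveI := Fintype.ofFinite G
  obtain ⟨a, ha⟩ := Finite.exists_max (fun x : G => (cls x).card)
  have hcn : ∀ x : G, (cls x).card ≤ n := fun x => by rw [card_cls]; exact h x
  have hn1 : 1 ≤ n := by
    have h1 : 0 < (cls (1 : G)).card := Finset.card_pos.mpr ⟨1, mem_cls.mpr ⟨1, by simp⟩⟩
    exact le_trans h1 (hcn 1)
  -- chosen conjugators
  have hch : ∀ b : {b // b ∈ cls a}, ∃ g : G, g * a * g⁻¹ = b.1 := fun b => mem_cls.mp b.2
  choose gb hgb using hch
  let C : Subgroup G := ⨅ b : {b // b ∈ cls a}, centralizer ({gb b} : Set G)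
  have hC : C.index ≤ n ^ n := by
    calc C.index ≤ ∏ b : {b // b ∈ cls a}, (centralizer ({gb b} : Set G)).index := index_iInf_le _
      _ ≤ ∏ _b : {b // b ∈ cls a}, n := Finset.prod_le_prod' (fun b _ => h _)
      _ = n ^ (cls a).card := by simp
      _ ≤ n ^ n := Nat.pow_le_pow_right hn1 (hcn a)
  let T : Finset G := Finset.image₂ (fun u v => u⁻¹ * v) (cls a) (cls a)
  have hT : T.card ≤ n * n :=
    le_trans (Finset.card_image₂_le _ _ _) (Nat.mul_le_mul (hcn a) (hcn a))
  have key : ∀ c ∈ C, ∀ g : G, g * c * g⁻¹ * c⁻¹ ∈ T := by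
    intro c hc g
    have hcb : ∀ b : {b // b ∈ cls a}, gb b * c = c * gb b := by
      intro b
      have h1 : c ∈ centralizer ({gb b} : Set G) := (mem_iInf.mp hc) b
      rw [mem_centralizer_singleton_iff] at h1
      exact h1.symm
    -- all `b c` are conjugates of `a c`
    have hsub : (cls a).image (fun b => b * c) ⊆ cls (a * c) := by
      intro y hy
      rw [Finset.mem_image] at hy
      obtain ⟨b, hb, rfl⟩ := hy
      refine mem_cls.mpr ⟨gb ⟨b, hb⟩, ?_⟩
      have h1 := hgb ⟨b, hb⟩
      have h2 := hcb ⟨b, hb⟩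
      calc gb ⟨b, hb⟩ * (a * c) * (gb ⟨b, hb⟩)⁻¹ = gb ⟨b, hb⟩ * a * (c * gb ⟨b, hb⟩ * (gb ⟨b, hb⟩)⁻¹) * (gb ⟨b, hb⟩)⁻¹ := by group
        _ = gb ⟨b, hb⟩ * a * (gb ⟨b, hb⟩ * c * (gb ⟨b, hb⟩)⁻¹) * (gb ⟨b, hb⟩)⁻¹ := by rw [h2]
        _ = b * c := by
          have h3 : c * (gb ⟨b, hb⟩)⁻¹ = (gb ⟨b, hb⟩)⁻¹ * c := by
            have h4 := congrArg (fun z => (gb ⟨b, hb⟩)⁻¹ * z * (gb ⟨b, hb⟩)⁻¹) h2
            simp only [mul_assoc, inv_mul_cancel_left, mul_inv_cancel, mul_one] at h4
            exact h4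
          have h5 : gb ⟨b, hb⟩ * c * (gb ⟨b, hb⟩)⁻¹ = c := by
            rw [mul_assoc, h3, mul_inv_cancel_left]
          rw [h5, mul_assoc, h3, ← mul_assoc, h1]
    have hcard : (cls (a * c)).card ≤ ((cls a).image (fun b => b * c)).card := by
      rw [Finset.card_image_of_injective _ (mul_left_injective c)]
      exact ha (a * c)
    have heq : (cls a).image (fun b => b * c) = cls (a * c) := Finset.eq_of_subset_of_card_le hsub hcard
    have hg : g * (a * c) * g⁻¹ ∈ cls (a * c) := mem_cls.mpr ⟨g, rfl⟩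
    rw [← heq, Finset.mem_image] at hg
    obtain ⟨b, hb, hbc⟩ := hg
    refine Finset.mem_image₂.mpr ⟨g * a * g⁻¹, mem_cls.mpr ⟨g, rfl⟩, b, hb, ?_⟩
    have : g * c * g⁻¹ = (g * a * g⁻¹)⁻¹ * (b * c) := by
      rw [hbc]; group
    rw [this]; group
  -- the commutators
  let rep : G ⧸ C → G := fun q => q.out
  haveI : Fintype (G ⧸ C) := Fintype.ofFinite _
  let S : Finset G := (Finset.univ : Finset (G ⧸ C)).biUnion fun q =>
    Finset.image₂ (fun u v => u * (rep q)⁻¹ * (rep q * v * (rep q)⁻¹)) (cls (rep q)) T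
  have hS : S.card ≤ n ^ n * (n * (n * n)) := by
    calc S.card ≤ (Finset.univ : Finset (G ⧸ C)).card * (n * (n * n)) := by
          apply Finset.card_biUnion_le_card_mul
          intro q _
          exact le_trans (Finset.card_image₂_le _ _ _) (Nat.mul_le_mul (hcn _) hT)
      _ ≤ n ^ n * (n * (n * n)) := by
          apply Nat.mul_le_mul_right
          rw [Finset.card_univ, ← Nat.card_eq_fintype_card]
          exact hC
  have hsub : commutatorSet G ⊆ (S : Set G) := by
    rintro _ ⟨g, x, rfl⟩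
    rw [Finset.mem_coe]
    refine Finset.mem_biUnion.mpr ⟨(x : G ⧸ C), Finset.mem_univ _, ?_⟩
    obtain ⟨c, hc⟩ := QuotientGroup.mk_out_eq_mul C x
    -- out = x * c
    have hx : x = rep (x : G ⧸ C) * (c : G)⁻¹ := by
      show x = (x : G ⧸ C).out * (c : G)⁻¹
      rw [hc]; group
    refine Finset.mem_image₂.mpr ⟨g * rep (x : G ⧸ C) * g⁻¹, mem_cls.mpr ⟨g, rfl⟩,
      g * (c : G)⁻¹ * g⁻¹ * ((c : G)⁻¹)⁻¹, key _ (C.inv_mem c.2) g, ?_⟩
    rw [commutatorElement_def]
    generalize rep (x : G ⧸ C) = r at hx ⊢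
    rw [hx]
    group
  calc Nat.card (commutatorSet G) ≤ Nat.card (S : Set G) := Nat.card_mono (Finset.finite_toSet S) hsub
    _ = S.card := by simp
    _ ≤ _ := hS

/-- **B. H. Neumann's theorem** for finite groups: the order of the derived subgroup is bounded in terms of the
largest class size. -/
theorem exists_bound (n : ℕ) : ∃ N : ℕ, ∀ (G : Type*) [Group G] [Finite G],
    (∀ x : G, (centralizer ({x} : Set G)).index ≤ n) → Nat.card (commutator G) ≤ N := by
  refine ⟨(Finset.range (n ^ n * (n * (n * n)) + 1)).sup cardCommutatorBound, ?_⟩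
  intro G _ _ h
  refine le_trans (card_commutator_le_of_finite_commutatorSet G) ?_
  exact Finset.le_sup (f := cardCommutatorBound) (Finset.mem_range.mpr (Nat.lt_succ_of_le (card_commutatorSet_le h)))

end Cfsg.Agent.H565.BFC
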