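import Mathlib
import Cfsg.Agent.Lib.CoprimeHyperplane

/-!
# Diagonal subgroups: norms of elements of a group with commuting conjugates

`c ^ q = 1` and the conjugates `K ^ (c ^ i)`, `i < q`, of `K` commute elementwise: `nrm k = ∏ i, c ^ i k c ^ (-i)` is a
homomorphism from `K` to the centraliser of `c`.
`pow_mem`: two commuting elements `a`, `b` of order `q` such that the conjugates of `K` under `⟨a, b⟩` commute
elementwise; then `k ^ q` is a product of norms.
-/

set_option autoImplicit false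

namespace Cfsg.Agent.H565.NormK

open Subgroup
open Cfsg.Agent.Lib.CoprimeHyperplane (pow_val_add pow_val_mul pow_val_one prod_identity)
open scoped commutatorElement IsMulCommutative

variable {G : Type*} [Group G] {q : ℕ} [hq : Fact q.Prime]

/-- The conjugates of `K` under powers of `c` commute elementwise. -/
def CommConj (q : ℕ) (c : G) (K : Subgroup G) : Prop :=
  ∀ i j : ZMod q, i ≠ j → ∀ x ∈ K, ∀ y ∈ K,
    Commute (c ^ i.val * x * (c ^ i.val)⁻¹) (c ^ j.val * y * (c ^ j.val)⁻¹)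

/-- `x ↦ ∏ i, c ^ i x_i c ^ (-i)`. -/
noncomputable def Psi {c : G} {K : Subgroup G} (h : CommConj q c K) : (ZMod q → K) →* G :=
  MonoidHom.noncommPiCoprod (fun i : ZMod q => (MulAut.conj (c ^ i.val)).toMonoidHom.comp K.subtype)
    (fun i j hij x y => h i j hij x.1 x.2 y.1 y.2)

theorem Psi_mulSingle {c : G} {K : Subgroup G} (h : CommConj q c K) (i : ZMod q) (x : K) :
    Psi h (Pi.mulSingle i x) = c ^ i.val * (x : G) * (c ^ i.val)⁻¹ := by
  classical
  have hcomm : Pairwise fun i j : ZMod q => ∀ (x y : K),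
      Commute (((MulAut.conj (c ^ i.val)).toMonoidHom.comp K.subtype) x)
        (((MulAut.conj (c ^ j.val)).toMonoidHom.comp K.subtype) y) :=
    fun i j hij x y => h i j hij x.1 x.2 y.1 y.2
  exact MonoidHom.noncommPiCoprod_mulSingle (hcomm := hcomm)
    (fun i : ZMod q => (MulAut.conj (c ^ i.val)).toMonoidHom.comp K.subtype) i x

/-- The norm `k ↦ ∏ i, c ^ i k c ^ (-i)`. -/
noncomputable def nrm {c : G} {K : Subgroup G} (h : CommConj q c K) : K →* G :=
  (Psi h).comp (Pi.constMonoidHom (ZMod q) K)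

theorem conj_nrm {c : G} {K : Subgroup G} (h : CommConj q c K) (hc : c ^ q = 1) (k : K) :
    c * nrm h k * c⁻¹ = nrm h k := by
  classical
  let σ : (ZMod q → K) →* (ZMod q → K) :=
    { toFun := fun x i => x (i - 1), map_one' := rfl, map_mul' := fun _ _ => rfl }
  have key : ((MulAut.conj c).toMonoidHom.comp (Psi h)) = (Psi h).comp σ := by
    refine MonoidHom.pi_ext fun i x => ?_
    have h1 : σ (Pi.mulSingle i x) = Pi.mulSingle (i + 1) x := by
      funext j
      show (Pi.mulSingle i x : ZMod q → K) (j - 1) = _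
      by_cases hj : j = i + 1
      · subst hj; simp
      · rw [Pi.mulSingle_eq_of_ne hj, Pi.mulSingle_eq_of_ne (fun h2 => hj (by rw [← h2]; ring))]
    rw [MonoidHom.comp_apply, MonoidHom.comp_apply, h1]
    rw [Psi_mulSingle, Psi_mulSingle]
    show c * (c ^ i.val * (x : G) * (c ^ i.val)⁻¹) * c⁻¹ = c ^ (i + 1).val * (x : G) * (c ^ (i + 1).val)⁻¹
    rw [add_comm i 1, pow_val_add hc, pow_val_one c]
    group
  have h2 := DFunLike.congr_fun key (Pi.constMonoidHom (ZMod q) K k)
  exact h2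

theorem nrm_eq {c : G} {K : Subgroup G} (h : CommConj q c K) (k : K) :
    nrm h k = Finset.noncommProd Finset.univ (fun i : ZMod q => c ^ i.val * (k : G) * (c ^ i.val)⁻¹)
      (fun i _ j _ hij => h i j hij k.1 k.2 k.1 k.2) := rfl

theorem nrm_mem {c : G} {K : Subgroup G} (h : CommConj q c K) {P : Subgroup G}
    (hcP : ∀ x ∈ P, c * x * c⁻¹ ∈ P) {k : K} (hk : (k : G) ∈ P) : nrm h k ∈ P := by
  have hpow : ∀ n : ℕ, ∀ x ∈ P, c ^ n * x * (c ^ n)⁻¹ ∈ P := by
    intro n
    induction n with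
    | zero => intro x hx; simpa using hx
    | succ n ih =>
      intro x hx
      have h1 : c ^ (n + 1) * x * (c ^ (n + 1))⁻¹ = c * (c ^ n * x * (c ^ n)⁻¹) * c⁻¹ := by
        rw [pow_succ']; group
      rw [h1]
      exact hcP _ (ih x hx)
  rw [nrm_eq]
  exact Subgroup.noncommProd_mem _ _ (fun i _ => hpow _ _ hk)

theorem nrm_mem_commutator {c : G} {K H : Subgroup G} (h : CommConj q c K) (hc : c ^ q = 1) (hKH : K ≤ H)
    (hcH : ∀ x ∈ H, c * x * c⁻¹ ∈ H) (hK : commutator K = ⊤) (k : K) :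
    nrm h k ∈ ⁅H ⊓ centralizer ({c} : Set G), H ⊓ centralizer ({c} : Set G)⁆ := by
  have h1 : (⊤ : Subgroup K).map (nrm h) ≤ H ⊓ centralizer ({c} : Set G) := by
    rintro _ ⟨k, -, rfl⟩
    refine mem_inf.mpr ⟨nrm_mem h hcH (hKH k.2), ?_⟩
    rw [mem_centralizer_singleton_iff]
    have h2 := conj_nrm h hc k
    calc nrm h k * c = c * nrm h k * c⁻¹ * c := by rw [h2]
      _ = c * nrm h k := by group
  have h2 : nrm h k ∈ (⊤ : Subgroup K).map (nrm h) := ⟨k, mem_top _, rfl⟩
  rw [← hK, commutator_def, map_commutator] at h2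
  exact commutator_mono h1 h1 h2

theorem coe_prod_eq_nrm {c : G} {K : Subgroup G} (h : CommConj q c K) (k : K) (Z : Subgroup G) [IsMulCommutative Z]
    (f : ZMod q → Z) (hf : ∀ i, (f i : G) = c ^ i.val * (k : G) * (c ^ i.val)⁻¹) :
    ((∏ i, f i : Z) : G) = nrm h k := by
  rw [nrm_eq]
  have h1 : (∏ i, f i : Z) = Finset.noncommProd Finset.univ f (fun i _ j _ _ => Commute.all _ _) :=
    (Finset.noncommProd_eq_prod _ _).symm
  rw [h1]
  have h2 := Finset.map_noncommProd Finset.univ f (fun i _ j _ _ => Commute.all _ _) Z.subtype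
  rw [← Subgroup.coe_subtype, h2]
  refine Finset.noncommProd_congr rfl (fun i _ => ?_) _
  exact hf i

/-- `k ^ q` is a product of norms. -/
theorem pow_mem {a b : G} (hab : a * b = b * a) (ha : a ^ q = 1) (hb : b ^ q = 1) {K : Subgroup G}
    (hcomm : ∀ i j i' j' : ZMod q, (i, j) ≠ (i', j') → ∀ x ∈ K, ∀ y ∈ K,
      Commute (a ^ i.val * b ^ j.val * x * (a ^ i.val * b ^ j.val)⁻¹)
        (a ^ i'.val * b ^ j'.val * y * (a ^ i'.val * b ^ j'.val)⁻¹))
    (k : K) (S : Subgroup G)
    (hS : ∀ (c : G) (h : CommConj q c K), (c = b ∨ ∃ j : ZMod q, c = a * b ^ j.val) → nrm h k ∈ S)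
    (hSa : ∀ x ∈ S, a * x * a⁻¹ ∈ S) :
    (k : G) ^ q ∈ S := by
  classical
  set t : ZMod q → ZMod q → G := fun i j => a ^ i.val * b ^ j.val with ht
  have hb_comm : CommConj q b K := by
    intro i j hij x hx y hy
    have h1 := hcomm 0 i 0 j (fun h => hij (congrArg Prod.snd h)) x hx y hy
    simpa using h1
  have hpw : ∀ i j : ZMod q, (a * b ^ j.val) ^ i.val = a ^ i.val * b ^ (i * j).val := by
    intro i j
    rw [pow_val_mul hb, (Commute.pow_right (show Commute a b from hab) _).mul_pow]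
  have hl_comm : ∀ j : ZMod q, CommConj q (a * b ^ j.val) K := by
    intro j i i' hii x hx y hy
    rw [hpw, hpw]
    exact hcomm i (i * j) i' (i' * j) (fun h => hii (congrArg Prod.fst h)) x hx y hy
  let Z : Subgroup G := closure {x : G | ∃ i j : ZMod q, x = t i j * k * (t i j)⁻¹}
  haveI hZ : IsMulCommutative Z := by
    apply isMulCommutative_closure
    rintro _ ⟨i, j, rfl⟩ _ ⟨i', j', rfl⟩
    by_cases h : (i, j) = (i', j')
    · obtain ⟨rfl, rfl⟩ := Prod.mk.inj h
      rfl
    · exact hcomm i j i' j' h k.1 k.2 k.1 k.2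
  let F : ZMod q → ZMod q → Z := fun i j => ⟨t i j * k * (t i j)⁻¹, subset_closure ⟨i, j, rfl⟩⟩
  have hid := congrArg (Subtype.val (p := fun x => x ∈ Z)) (prod_identity F)
  have e1 : ((∏ j, F 0 j : Z) : G) = nrm hb_comm k := by
    apply coe_prod_eq_nrm
    intro i
    show t 0 i * k * (t 0 i)⁻¹ = _
    simp [ht]
  have e2 : ∀ j, ((∏ i, F i (i * j) : Z) : G) = nrm (hl_comm j) k := by
    intro j
    apply coe_prod_eq_nrm
    intro i
    show t i (i * j) * k * (t i (i * j))⁻¹ = _
    rw [hpw]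
  have m1 : ((∏ j, F 0 j : Z) : G) ∈ S := by
    rw [e1]; exact hS b hb_comm (Or.inl rfl)
  have m2 : ((∏ j, ∏ i, F i (i * j) : Z) : G) ∈ S := by
    have : ∀ s : Finset (ZMod q), ((∏ j ∈ s, ∏ i, F i (i * j) : Z) : G) ∈ S := by
      intro s
      induction s using Finset.induction_on with
      | empty => simp [S.one_mem]
      | insert j s hj ih =>
        rw [Finset.prod_insert hj, Subgroup.coe_mul]
        refine S.mul_mem ?_ ih
        rw [e2 j]
        exact hS _ (hl_comm j) (Or.inr ⟨j, rfl⟩)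
    exact this Finset.univ
  have hSan : ∀ n : ℕ, ∀ x ∈ S, a ^ n * x * (a ^ n)⁻¹ ∈ S := by
    intro n
    induction n with
    | zero => intro x hx; simpa using hx
    | succ n ih =>
      intro x hx
      have h1 : a ^ (n + 1) * x * (a ^ (n + 1))⁻¹ = a * (a ^ n * x * (a ^ n)⁻¹) * a⁻¹ := by
        rw [pow_succ']; group
      rw [h1]
      exact hSa _ (ih x hx)
  have m3 : ((∏ i, ∏ j, F i j : Z) : G) ∈ S := by
    have e3 : ∀ i, ((∏ j, F i j : Z) : G) ∈ S := by
      intro i
      have h1 : ((∏ j, F i j : Z) : G) = a ^ i.val * nrm hb_comm k * (a ^ i.val)⁻¹ := by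
        have h3 : ∀ s : Finset (ZMod q), ((∏ j ∈ s, F i j : Z) : G) =
            a ^ i.val * ((∏ j ∈ s, F 0 j : Z) : G) * (a ^ i.val)⁻¹ := by
          intro s
          induction s using Finset.induction_on with
          | empty => simp
          | insert j s hj ih =>
            rw [Finset.prod_insert hj, Finset.prod_insert hj, Subgroup.coe_mul, Subgroup.coe_mul, ih]
            have h2 : ((F i j : Z) : G) = a ^ i.val * ((F 0 j : Z) : G) * (a ^ i.val)⁻¹ := by
              show t i j * k * (t i j)⁻¹ = a ^ i.val * (t 0 j * k * (t 0 j)⁻¹) * (a ^ i.val)⁻¹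
              simp only [ht, ZMod.val_zero, pow_zero, one_mul]
              group
            rw [h2]; group
        rw [h3, e1]
      rw [h1]
      exact hSan _ _ (hS b hb_comm (Or.inl rfl))
    have : ∀ s : Finset (ZMod q), ((∏ i ∈ s, ∏ j, F i j : Z) : G) ∈ S := by
      intro s
      induction s using Finset.induction_on with
      | empty => simp [S.one_mem]
      | insert j s hj ih =>
        rw [Finset.prod_insert hj, Subgroup.coe_mul]
        exact S.mul_mem (e3 j) ih
    exact this Finset.univ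
  have h00 : ((F 0 0 : Z) : G) = k := by
    show t 0 0 * k * (t 0 0)⁻¹ = k
    simp [ht]
  have hid2 : ((∏ j, F 0 j : Z) : G) * ((∏ j, ∏ i, F i (i * j) : Z) : G) =
      (k : G) ^ q * ((∏ i, ∏ j, F i j : Z) : G) := by
    rw [← h00]
    exact hid
  have : (k : G) ^ q = ((∏ j, F 0 j : Z) : G) * ((∏ j, ∏ i, F i (i * j) : Z) : G) *
      ((∏ i, ∏ j, F i j : Z) : G)⁻¹ := by
    rw [hid2]; group
  rw [this]
  exact S.mul_mem (S.mul_mem m1 m2) (S.inv_mem m3)

end Cfsg.Agent.H565.NormK
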