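import Mathlib
import Cfsg.Agent.H565.BFC

/-!
# Groups whose elements of prime power order have small conjugacy classes

`exists_bound`: if all elements of prime power order of a finite group have at most `k` conjugates then the order of the
derived subgroup is bounded in terms of `k`.
-/

set_option autoImplicit false

namespace Cfsg.Agent.H565.PrimePow

open Subgroup

/-- An element whose prime power parts are in `H` is in `H`. -/
theorem mem_of_parts {K : Type*} [Group K] [Finite K] {x : K} {H : Subgroup K}
    (h : ∀ r : ℕ, r.Prime → x ^ (orderOf x / r ^ (orderOf x).factorization r) ∈ H) : x ∈ H := by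
  classical
  have hn : orderOf x ≠ 0 := (orderOf_pos x).ne'
  have hex : ∃ e : ℕ, 0 < e ∧ x ^ e ∈ H := ⟨orderOf x, orderOf_pos x, by rw [pow_orderOf_eq_one]; exact H.one_mem⟩
  set e := Nat.find hex with he
  obtain ⟨he0, heH⟩ := Nat.find_spec hex
  have hdvd : ∀ d : ℕ, x ^ d ∈ H → e ∣ d := by
    intro d hd
    by_contra hnd
    have hpos : 0 < d % e := Nat.pos_of_ne_zero (fun h0 => hnd (Nat.dvd_of_mod_eq_zero h0))
    have hlt : d % e < e := Nat.mod_lt _ he0
    refine Nat.find_min hex hlt ⟨hpos, ?_⟩
    have h1 : x ^ d = x ^ (e * (d / e)) * x ^ (d % e) := by rw [← pow_add, Nat.div_add_mod]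
    have h2 : x ^ (d % e) = (x ^ (e * (d / e)))⁻¹ * x ^ d := by rw [h1]; group
    rw [h2]
    refine H.mul_mem (H.inv_mem ?_) hd
    rw [pow_mul]
    exact H.pow_mem heH _
  have he1 : e = 1 := by
    by_contra hne
    obtain ⟨r, hr, hre⟩ := Nat.exists_prime_and_dvd hne
    have h1 := hdvd _ (h r hr)
    exact Nat.not_dvd_ordCompl hr hn (hre.trans h1)
  have h2 : x ^ e ∈ H := heH
  rw [he1, pow_one] at h2
  exact h2

theorem orderOf_part {K : Type*} [Group K] [Finite K] (x : K) (r : ℕ) :
    orderOf (x ^ (orderOf x / r ^ (orderOf x).factorization r)) = r ^ (orderOf x).factorization r := by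
  have hn : orderOf x ≠ 0 := (orderOf_pos x).ne'
  have hd : orderOf x / r ^ (orderOf x).factorization r ∣ orderOf x := Nat.ordCompl_dvd _ _
  have hpos : orderOf x / r ^ (orderOf x).factorization r ≠ 0 := (Nat.ordCompl_pos r hn).ne'
  rw [orderOf_pow_of_dvd hpos hd]
  have h1 := Nat.ordProj_mul_ordCompl_eq_self (orderOf x) r
  have h2 : orderOf x = r ^ (orderOf x).factorization r * (orderOf x / r ^ (orderOf x).factorization r) := h1.symm
  exact Nat.div_eq_of_eq_mul_left (Nat.pos_of_ne_zero hpos) h2

theorem index_le {K : Type*} [Group K] [Finite K] {k : ℕ}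
    (h : ∀ x : K, (∃ r a : ℕ, r.Prime ∧ orderOf x = r ^ a) → (centralizer ({x} : Set K)).index ≤ k) (x : K) :
    (centralizer ({x} : Set K)).index ≤ k ^ k := by
  classical
  have hk : 1 ≤ k := by
    have h1 := h 1 ⟨2, 0, Nat.prime_two, by simp⟩
    have h2 : (centralizer ({(1 : K)} : Set K)).index ≠ 0 := Subgroup.index_ne_zero_of_finite
    omega
  -- elements of order a power of a large prime are central
  have hcent : ∀ r a : ℕ, r.Prime → k < r → ∀ g : K, orderOf g = r ^ a → ∀ y : K, g * y = y * g := by
    intro r a hr hkr g hg y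
    have h1 : y ∈ centralizer ({g} : Set K) := by
      apply mem_of_parts
      intro s hs
      set z := y ^ (orderOf y / s ^ (orderOf y).factorization s) with hz
      have hz1 : (centralizer ({z} : Set K)).index ≤ k := h z ⟨s, _, hs, orderOf_part y s⟩
      have h2 : (centralizer ({z} : Set K)).relIndex (zpowers g) ∣ Nat.card (zpowers g) :=
        Subgroup.relIndex_dvd_card _ _
      rw [Nat.card_zpowers, hg] at h2
      have h3 : (centralizer ({z} : Set K)).relIndex (zpowers g) ≤ k := by
        refine le_trans ?_ hz1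
        rw [← Subgroup.relIndex_top_right]
        exact Subgroup.relIndex_le_of_le_right le_top (by
          rw [Subgroup.relIndex_top_right]; exact Subgroup.index_ne_zero_of_finite)
      obtain ⟨b, hb, hb2⟩ := (Nat.dvd_prime_pow hr).mp h2
      have h4 : b = 0 := by
        by_contra hb0
        have h5 : r ^ 1 ≤ r ^ b := Nat.pow_le_pow_right hr.pos (Nat.pos_of_ne_zero hb0)
        rw [pow_one, ← hb2] at h5
        omega
      rw [h4, pow_zero, Subgroup.relIndex_eq_one] at hb2
      have h6 := hb2 (mem_zpowers g)
      rw [mem_centralizer_singleton_iff] at h6 ⊢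
      exact h6.symm
    rw [mem_centralizer_singleton_iff] at h1
    exact h1.symm
  let f : Fin k → Subgroup K := fun i =>
    if ((i : ℕ) + 1).Prime then
      centralizer ({x ^ (orderOf x / ((i : ℕ) + 1) ^ (orderOf x).factorization ((i : ℕ) + 1))} : Set K) else ⊤
  have hle : ⨅ i, f i ≤ centralizer ({x} : Set K) := by
    intro g hg
    have h1 : x ∈ centralizer ({g} : Set K) := by
      apply mem_of_parts
      intro r hr
      rw [mem_centralizer_singleton_iff]
      by_cases hrk : k < r
      · exact (hcent r _ hr hrk _ (orderOf_part x r) g)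
      · have hr1 : r - 1 < k := by have := hr.one_lt; omega
        have h2 := (mem_iInf.mp hg) ⟨r - 1, hr1⟩
        have h3 : ((⟨r - 1, hr1⟩ : Fin k) : ℕ) + 1 = r := by
          show r - 1 + 1 = r
          have := hr.one_lt; omega
        simp only [f, h3, if_pos hr] at h2
        rw [mem_centralizer_singleton_iff] at h2
        exact h2.symm
    rw [mem_centralizer_singleton_iff] at h1 ⊢
    exact h1.symm
  calc (centralizer ({x} : Set K)).index ≤ (⨅ i, f i).index :=
        Nat.le_of_dvd (Nat.pos_of_ne_zero Subgroup.index_ne_zero_of_finite) (Subgroup.index_dvd_of_le hle)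
    _ ≤ ∏ i, (f i).index := Subgroup.index_iInf_le f
    _ ≤ ∏ _i : Fin k, k := by
        refine Finset.prod_le_prod' (fun i _ => ?_)
        by_cases hp : ((i : ℕ) + 1).Prime
        · simp only [f, if_pos hp]
          exact h _ ⟨_, _, hp, orderOf_part x _⟩
        · simp only [f, if_neg hp, Subgroup.index_top]
          exact hk
    _ = k ^ k := by simp

/-- If the elements of prime power order have at most `k` conjugates then the order of the derived subgroup is bounded. -/
theorem exists_bound (k : ℕ) : ∃ N : ℕ, ∀ (K : Type*) [Group K] [Finite K],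
    (∀ x : K, (∃ r a : ℕ, r.Prime ∧ orderOf x = r ^ a) → (centralizer ({x} : Set K)).index ≤ k) →
      Nat.card (commutator K) ≤ N := by
  obtain ⟨N, hN⟩ := BFC.exists_bound (k ^ k)
  exact ⟨N, fun K _ _ h => hN K (index_le h)⟩

end Cfsg.Agent.H565.PrimePow
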