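import Mathlib

/-!
# Actions by automorphisms as conjugation in the semidirect product

`A` acts on `G` by `MulDistribMulAction`; `SD A G = G ⋊ A`, `iG : G →* SD A G`, `iA : A →* SD A G`.
-/

set_option autoImplicit false

namespace Cfsg.Agent.H565.Semi

open Subgroup

variable (A G : Type*) [Group A] [Group G] [MulDistribMulAction A G]

/-- The semidirect product of `G` with the group `A` acting on it. -/
abbrev SD := SemidirectProduct G A (MulDistribMulAction.toMulAut A G)

instance instFiniteSD [Finite A] [Finite G] : Finite (SD A G) :=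
  Finite.of_equiv (G × A) SemidirectProduct.equivProd.symm

variable {A G}

/-- The embedding of `G`. -/
abbrev iG (A G : Type*) [Group A] [Group G] [MulDistribMulAction A G] : G →* SD A G := SemidirectProduct.inl

/-- The embedding of `A`. -/
abbrev iA (A G : Type*) [Group A] [Group G] [MulDistribMulAction A G] : A →* SD A G := SemidirectProduct.inr

theorem iG_injective : Function.Injective (iG A G) := SemidirectProduct.inl_injective
theorem iA_injective : Function.Injective (iA A G) := SemidirectProduct.inr_injective

theorem conj_iG (a : A) (g : G) : iA A G a * iG A G g * (iA A G a)⁻¹ = iG A G (a • g) := by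
  have h := SemidirectProduct.inl_aut (φ := MulDistribMulAction.toMulAut A G) a g
  rw [← map_inv]
  exact h.symm

theorem range_iA_le_normalizer : (iA A G).range ≤ normalizer ((iG A G).range : Set (SD A G)) := by
  have key : ∀ a : A, ∀ x ∈ (iG A G).range, iA A G a * x * (iA A G a)⁻¹ ∈ (iG A G).range := by
    rintro a _ ⟨g, rfl⟩
    exact ⟨a • g, (conj_iG a g).symm⟩
  rintro _ ⟨a, rfl⟩
  rw [mem_normalizer_iff]
  intro x
  constructor
  · exact key a x
  · intro hx
    have h1 := key a⁻¹ _ hx
    have h2 : iA A G a⁻¹ * (iA A G a * x * (iA A G a)⁻¹) * (iA A G a⁻¹)⁻¹ = x := by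
      rw [map_inv]; group
    rwa [h2] at h1

theorem iG_mem_centralizer {a : A} {g : G} : iG A G g ∈ centralizer ({iA A G a} : Set (SD A G)) ↔ a • g = g := by
  rw [mem_centralizer_singleton_iff]
  constructor
  · intro h
    apply iG_injective (A := A) (G := G)
    rw [← conj_iG (A := A) (G := G) a g, ← h]
    group
  · intro h
    have h1 := conj_iG a g
    rw [h] at h1
    calc iG A G g * iA A G a = iA A G a * iG A G g * (iA A G a)⁻¹ * iA A G a := by rw [h1]
      _ = iA A G a * iG A G g := by group

theorem mem_fixedPoints_zpowers {a : A} {g : G} : g ∈ FixedPoints.subgroup (zpowers a) G ↔ a • g = g := by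
  rw [FixedPoints.mem_subgroup]
  constructor
  · intro h; exact h ⟨a, mem_zpowers a⟩
  · intro h
    have h1 : zpowers a ≤ MulAction.stabilizer A g := by
      rw [zpowers_le]; exact h
    rintro ⟨b, hb⟩
    exact h1 hb

/-- The fixed points of `a` on `G`, inside the semidirect product. -/
theorem map_fixedPoints (a : A) : (FixedPoints.subgroup (zpowers a) G).map (iG A G) =
    (iG A G).range ⊓ centralizer ({iA A G a} : Set (SD A G)) := by
  ext x
  rw [mem_map, mem_inf]
  constructor
  · rintro ⟨g, hg, rfl⟩
    exact ⟨⟨g, rfl⟩, iG_mem_centralizer.mpr (mem_fixedPoints_zpowers.mp hg)⟩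
  · rintro ⟨⟨g, rfl⟩, hg⟩
    exact ⟨g, mem_fixedPoints_zpowers.mpr (iG_mem_centralizer.mp hg), rfl⟩

/-- The fixed points of `a` on `G` as a subgroup of the semidirect product. -/
noncomputable def fixEquiv (a : A) : ↥(FixedPoints.subgroup (zpowers a) G) ≃*
    ↥((iG A G).range ⊓ centralizer ({iA A G a} : Set (SD A G))) :=
  ((FixedPoints.subgroup (zpowers a) G).equivMapOfInjective (iG A G) iG_injective).trans
    (MulEquiv.subgroupCongr (map_fixedPoints a))

theorem card_commutator_congr {X Y : Type*} [Group X] [Group Y] (e : X ≃* Y) :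
    Nat.card (commutator X) = Nat.card (commutator Y) := by
  have h1 : (commutator X).map e.toMonoidHom = commutator Y := by
    rw [commutator_def, commutator_def, map_commutator, ← MonoidHom.range_eq_map,
      MonoidHom.range_eq_top_of_surjective _ e.surjective]
  rw [← h1]
  exact Nat.card_congr ((commutator X).equivMapOfInjective e.toMonoidHom e.injective).toEquiv

end Cfsg.Agent.H565.Semi
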